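import Cfsg.Agent.H626.SN.LThreeMain
import Cfsg.Agent.H21.SN.Lr

/-!
# `LrL 3` (helper626, S3831, task E1a)
-/

set_option autoImplicit false
set_option linter.unusedSectionVars false

namespace Cfsg.Agent.H626.SN.LThree

open Cfsg Subgroup Matrix Cfsg.Agent.H459.Rad Cfsg.Agent.H21.SN
open Cfsg.Agent.ClassicalGeometry.AutPSL.Root Cfsg.Agent.ClassicalGeometry.AutPSL.Auto

/-- a square-zero matrix of size three is `z yᵀ` -/
theorem exists_vecMulVec {F : Type*} [Field F] {M : Matrix (Fin 3) (Fin 3) F} (h : M ^ 2 = 0) :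
    ∃ z y : Fin 3 → F, M = vecMulVec z y := by
  rw [pow_two] at h
  obtain ⟨z, hz⟩ := exists_range h
  choose c hc using fun j => hz (Pi.single j 1)
  refine ⟨z, c, ?_⟩
  ext i j
  have h1 := congrFun (hc j) i
  rw [mulVec_single_one, Pi.smul_apply, smul_eq_mul] at h1
  rw [vecMulVec_apply, mul_comm, ← h1]
  rfl

/-- **`LrL 3`** -/
theorem lrL3 : LrL 3 := by
  intro F _ _ hF x hx hP _
  have := charP_three hF
  obtain ⟨A, hA, hA3, -, hA2⟩ := order_three hF hx hP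
  have hd0 : (A : Matrix (Fin 3) (Fin 3) F).det ≠ 0 := (Matrix.isUnit_iff_isUnit_det _).1 A.isUnit |>.ne_zero
  have hd : (A : Matrix (Fin 3) (Fin 3) F).det = 1 := by
    have h1 : (A : Matrix (Fin 3) (Fin 3) F).det ^ 3 = 1 := by
      rw [← det_pow, ← Units.val_pow_eq_pow_val, hA3, Units.val_one, det_one]
    have h2 := sq_eq_one hF hd0
    rw [pow_succ, pow_two, h2, one_mul] at h1
    exact h1
  obtain ⟨v, w, hvw⟩ := exists_vecMulVec hA2
  refine ⟨⟨(A : Matrix (Fin 3) (Fin 3) F), hd⟩, v, w, ?_, ?_⟩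
  · show (A : Matrix (Fin 3) (Fin 3) F) = _
    rw [← hvw]
    abel
  · rw [hA]
    obtain ⟨B, hB⟩ : ∃ B : SpecialLinearGroup (Fin 3) F, B = ⟨(A : Matrix (Fin 3) (Fin 3) F), hd⟩ := ⟨_, rfl⟩
    have h2 : (B : GL (Fin 3) F) = A := Units.ext (by rw [hB]; rfl)
    rw [← hB, ← h2]
    exact (conj_pr B).symm

end Cfsg.Agent.H626.SN.LThree
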